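-- TWOP (r = 2 slice of S5973) package [NEGB] (helper40): q = 3 mod 4, an isometry with
-- square -1 fixes totally singular m-spaces for all even m < d.
import Mathlib
import Cfsg.Agent.Lib.Helper37.TwoP.Defs
import Cfsg.Agent.Lib.Helper14.Forms
import Cfsg.Agent.Lib.Helper99.Quad

set_option autoImplicit false

namespace Cfsg.Agent.Lib.Helper40.TwoP

open Cfsg Module Matrix

universe u

section negB

variable {F : Type u} [Field F] [Fintype F]

omit [Fintype F] in
theorem sq_add_sq_eq_zero (hns : ¬ IsSquare (-1 : F)) {a b : F} (h : a * a + b * b = 0) :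
    a = 0 ∧ b = 0 := by
  have hb : b = 0 := by
    by_contra hb
    apply hns
    refine ⟨a / b, ?_⟩
    field_simp
    linear_combination -h
  subst hb
  simpa using h

theorem negB_step {ι : Type} [Fintype ι] [DecidableEq ι] (Q : QuadraticForm F (ι → F))
    (hnd : (QuadraticMap.polarBilin Q).Nondegenerate) (hns : ¬ IsSquare (-1 : F))
    (X : Matrix ι ι F) (hX : ∀ v, Q (X *ᵥ v) = Q v) (hXX : X * X = -1)
    (W : Submodule F (ι → F)) (hWts : ∀ w ∈ W, Q w = 0) (hWinv : W.map (Matrix.toLin' X) ≤ W)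
    (hdim : 2 * finrank F W + 3 ≤ Fintype.card ι) :
    ∃ W' : Submodule F (ι → F), finrank F W' = finrank F W + 2 ∧ (∀ w ∈ W', Q w = 0) ∧
      W'.map (Matrix.toLin' X) ≤ W' := by
  classical
  have h2 : (2 : F) ≠ 0 := by
    intro h
    apply hns
    refine ⟨1, ?_⟩
    linear_combination -h
  set B := QuadraticMap.polarBilin Q with hB
  have hpol : ∀ u v, QuadraticMap.polar Q (X *ᵥ u) (X *ᵥ v) = QuadraticMap.polar Q u v := by
    intro u v
    unfold QuadraticMap.polar
    rw [← Matrix.mulVec_add, hX, hX, hX]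
  have hXXv : ∀ v, X *ᵥ (X *ᵥ v) = -v := by
    intro v
    rw [Matrix.mulVec_mulVec, hXX, Matrix.neg_mulVec, Matrix.one_mulVec]
  have hWX : ∀ w ∈ W, X *ᵥ w ∈ W := by
    intro w hw
    have := hWinv (Submodule.mem_map_of_mem hw)
    rwa [Matrix.toLin'_apply] at this
  have hWpol : ∀ w ∈ W, ∀ w' ∈ W, QuadraticMap.polar Q w w' = 0 := by
    intro w hw w' hw'
    unfold QuadraticMap.polar
    rw [hWts _ (W.add_mem hw hw'), hWts _ hw, hWts _ hw']
    ring
  have hWP : W ≤ LinearMap.BilinForm.orthogonal B W := by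
    intro w hw
    rw [LinearMap.BilinForm.mem_orthogonal_iff]
    intro u hu
    exact hWpol u hu w hw
  obtain ⟨D, hWD⟩ := Submodule.exists_isCompl W
  have hdisj : Disjoint W (LinearMap.BilinForm.orthogonal B W ⊓ D) := hWD.disjoint.mono_right inf_le_right
  have hsup : W ⊔ (LinearMap.BilinForm.orthogonal B W ⊓ D) = LinearMap.BilinForm.orthogonal B W := by
    rw [inf_comm, ← sup_inf_assoc_of_le D hWP, hWD.sup_eq_top, top_inf_eq]
  have hfin : finrank F (LinearMap.BilinForm.orthogonal B W) = finrank F (ι → F) - finrank F W :=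
    LinearMap.BilinForm.finrank_orthogonal hnd W
  have hC : 3 ≤ finrank F ↥(LinearMap.BilinForm.orthogonal B W ⊓ D) := by
    have h1 := Submodule.finrank_sup_add_finrank_inf_eq W (LinearMap.BilinForm.orthogonal B W ⊓ D)
    rw [hsup, hdisj.eq_bot, finrank_bot] at h1
    rw [Module.finrank_fintype_fun_eq_card] at hfin
    have h3 := Submodule.finrank_le W
    rw [Module.finrank_fintype_fun_eq_card] at h3
    omega
  obtain ⟨v, hvC, hv0, hQv⟩ := Helper99.exists_isotropic Q _ hC
  have hvP : v ∈ LinearMap.BilinForm.orthogonal B W := hvC.1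
  have hvW : v ∉ W := fun h => hv0 (by
    have h1 : v ∈ W ⊓ (LinearMap.BilinForm.orthogonal B W ⊓ D) := ⟨h, hvC⟩
    rw [hdisj.eq_bot] at h1
    simpa using h1)
  have hWv : ∀ w ∈ W, QuadraticMap.polar Q w v = 0 := fun w hw =>
    (LinearMap.BilinForm.mem_orthogonal_iff.1 hvP) w hw
  have hWXv : ∀ w ∈ W, QuadraticMap.polar Q w (X *ᵥ v) = 0 := by
    intro w hw
    have h1 : w = X *ᵥ (-(X *ᵥ w)) := by
      rw [Matrix.mulVec_neg, hXXv, neg_neg]
    rw [h1, hpol]
    exact hWv _ (W.neg_mem (hWX w hw))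
  have hvXv : QuadraticMap.polar Q v (X *ᵥ v) = 0 := by
    have h1 : QuadraticMap.polar Q v (X *ᵥ v) = - QuadraticMap.polar Q v (X *ᵥ v) := by
      conv_lhs => rw [← hpol, hXXv, QuadraticMap.polar_neg_right, QuadraticMap.polar_comm]
    have h3 : (2 : F) * QuadraticMap.polar Q v (X *ᵥ v) = 0 := by linear_combination h1
    exact (mul_eq_zero.1 h3).resolve_left h2
  have hQXv : Q (X *ᵥ v) = 0 := by rw [hX, hQv]
  let φ : (W × F × F) →ₗ[F] (ι → F) :=
    W.subtype.coprod ((LinearMap.toSpanSingleton F _ v).coprod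
      (LinearMap.toSpanSingleton F _ (X *ᵥ v)))
  have hφ : ∀ (w : W) (a b : F), φ (w, a, b) = (w : ι → F) + (a • v + b • (X *ᵥ v)) := by
    intro w a b
    simp [φ]
  have hinj : Function.Injective φ := by
    rw [← LinearMap.ker_eq_bot, LinearMap.ker_eq_bot']
    rintro ⟨w, a, b⟩ h0
    rw [hφ] at h0
    have hu : a • v + b • (X *ᵥ v) ∈ W := by
      have h1 : a • v + b • (X *ᵥ v) = -(w : ι → F) := by
        rw [eq_neg_iff_add_eq_zero, add_comm]; exact h0
      rw [h1]; exact W.neg_mem w.2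
    have hXu := hWX _ hu
    rw [Matrix.mulVec_add, Matrix.mulVec_smul, Matrix.mulVec_smul, hXXv] at hXu
    have h5 : (a * a + b * b) • v ∈ W := by
      have h6 := W.sub_mem (W.smul_mem a hu) (W.smul_mem b hXu)
      have h7 : (a * a + b * b) • v =
          a • (a • v + b • (X *ᵥ v)) - b • (a • (X *ᵥ v) + b • -v) := by
        module
      rw [h7]; exact h6
    have h6 : a * a + b * b = 0 := by
      by_contra hne
      apply hvW
      have h7 := W.smul_mem (a * a + b * b)⁻¹ h5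
      rwa [smul_smul, inv_mul_cancel₀ hne, one_smul] at h7
    obtain ⟨ha, hb⟩ := sq_add_sq_eq_zero hns h6
    subst ha; subst hb
    have hw0 : (w : ι → F) = 0 := by simpa using h0
    have hw1 : w = 0 := Subtype.ext hw0
    rw [hw1]
    rfl
  refine ⟨LinearMap.range φ, ?_, ?_, ?_⟩
  · rw [LinearMap.finrank_range_of_inj hinj, Module.finrank_prod, Module.finrank_prod,
      Module.finrank_self]
  · rintro _ ⟨⟨w, a, b⟩, rfl⟩
    rw [hφ, QuadraticMap.map_add Q, QuadraticMap.map_add Q (a • v), QuadraticMap.map_smul,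
      QuadraticMap.map_smul, hWts w w.2, hQv, hQXv, QuadraticMap.polar_add_right,
      QuadraticMap.polar_smul_right, QuadraticMap.polar_smul_right,
      QuadraticMap.polar_smul_left, QuadraticMap.polar_smul_right, hWv w w.2, hWXv w w.2, hvXv]
    simp
  · rintro _ ⟨_, ⟨⟨w, a, b⟩, rfl⟩, rfl⟩
    refine ⟨(⟨X *ᵥ w, hWX w w.2⟩, -b, a), ?_⟩
    rw [hφ, hφ, Matrix.toLin'_apply, Matrix.mulVec_add, Matrix.mulVec_add, Matrix.mulVec_smul,
      Matrix.mulVec_smul, hXXv]
    module

theorem negB_exists (d : ℕ) (hq : Fintype.card F % 4 = 3)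
    (X : Matrix (Fin d ⊕ Fin d) (Fin d ⊕ Fin d) F)
    (hX : ∀ v, Cfsg.quadFormPlus d F (X *ᵥ v) = Cfsg.quadFormPlus d F v) (hXX : X * X = -1) :
    ∀ j : ℕ, 2 * j < d → ∃ W : Submodule F (Fin d ⊕ Fin d → F), finrank F W = 2 * j ∧
      (∀ w ∈ W, Cfsg.quadFormPlus d F w = 0) ∧ W.map (Matrix.toLin' X) ≤ W := by
  have hns : ¬ IsSquare (-1 : F) := by
    rw [FiniteField.isSquare_neg_one_iff]
    omega
  intro j
  induction j with
  | zero =>
    intro _
    refine ⟨⊥, by simp, ?_, by simp⟩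
    intro w hw
    rw [(Submodule.mem_bot F).1 hw]
    simp [Cfsg.quadFormPlus]
  | succ j ih =>
    intro hj
    obtain ⟨W, hW, hts, hinv⟩ := ih (by omega)
    obtain ⟨W', h1, h2, h3⟩ := negB_step (Helper14.plusQF d F) (Helper14.plusQF_nondegenerate d F)
      hns X (by rw [Helper14.plusQF_coe]; exact hX) hXX W
      (by rw [Helper14.plusQF_coe]; exact hts) hinv
      (by rw [hW, Fintype.card_sum, Fintype.card_fin]; omega)
    refine ⟨W', by rw [h1, hW]; ring, ?_, h3⟩
    rw [Helper14.plusQF_coe] at h2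
    exact h2

end negB

theorem pkgNegB : Cfsg.Agent.Lib.Helper37.TwoP.PkgNegB.{u} := by
  intro F _ _ d m hq hm hmd X hX hXX
  obtain ⟨j, rfl⟩ := hm
  obtain ⟨W, hW, hts, hinv⟩ := negB_exists d hq X hX hXX j (by omega)
  exact ⟨W, by rw [hW]; ring, hts, hinv⟩

end Cfsg.Agent.Lib.Helper40.TwoP
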